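import Mathlib
import Cfsg.Agent.Lib.Helper19.KAlt.Defs

/-!
# KALT (S0747): package [REDQ]

If some nonidentity element of `G` fixes `k + 1` points, there is a nontrivial `p`-subgroup of `G`
of maximal order among those fixing `k + 1` points.
-/

set_option autoImplicit false

namespace Cfsg.Agent.Lib.Helper1.KAlt

open Cfsg.Agent.Lib.Helper75.LW Cfsg.Agent.Lib.Helper19.KAlt

universe u

theorem pkgRedQ : PkgRedQ.{u} := by
  intro α _ _ G k hT
  classical
  unfold Triv at hT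
  simp only [not_forall] at hT
  obtain ⟨s, hs, g, hg, hfix, hg1⟩ := hT
  have hord : orderOf g ≠ 1 := by
    intro h
    exact hg1 (orderOf_eq_one_iff.mp h)
  obtain ⟨p, hp, hpd⟩ := Nat.exists_prime_and_dvd hord
  have hg'ord : orderOf (g ^ (orderOf g / p)) = p :=
    orderOf_pow_orderOf_div (orderOf_pos g).ne' hpd
  have hg'G : g ^ (orderOf g / p) ∈ G := G.pow_mem hg _
  have hg'fix : ∀ a ∈ s, (g ^ (orderOf g / p)) a = a := fun a ha =>
    Equiv.Perm.pow_apply_eq_self_of_apply_eq_self (hfix a ha) _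
  -- the candidates
  have hCfin : ({R : Subgroup (Equiv.Perm α) | R ≤ G ∧ IsPGroup p ↥R ∧
      ∃ s : Finset α, s.card = k + 1 ∧ ∀ r ∈ R, ∀ a ∈ s, r a = a}).Finite := Set.toFinite _
  have hCne : ({R : Subgroup (Equiv.Perm α) | R ≤ G ∧ IsPGroup p ↥R ∧
      ∃ s : Finset α, s.card = k + 1 ∧ ∀ r ∈ R, ∀ a ∈ s, r a = a}).Nonempty := by
    refine ⟨Subgroup.zpowers (g ^ (orderOf g / p)), ?_, ?_, s, hs, ?_⟩
    · rw [Subgroup.zpowers_le]
      exact hg'G
    · have hfact : Fact p.Prime := ⟨hp⟩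
      apply IsPGroup.of_card (n := 1)
      rw [Nat.card_zpowers, hg'ord, pow_one]
    · intro r hr a ha
      obtain ⟨i, rfl⟩ := Subgroup.mem_zpowers_iff.mp hr
      exact Equiv.Perm.zpow_apply_eq_self_of_apply_eq_self (hg'fix a ha) i
  obtain ⟨Q, hQC, hQmax⟩ := Set.exists_max_image _
    (fun R : Subgroup (Equiv.Perm α) => Nat.card ↥R) hCfin hCne
  obtain ⟨hQG, hQp, s₀, hs₀, hs₀fix⟩ := hQC
  have hpQ : p ≤ Nat.card ↥Q := by
    have h := hQmax (Subgroup.zpowers (g ^ (orderOf g / p))) (by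
      refine ⟨?_, ?_, s, hs, ?_⟩
      · rw [Subgroup.zpowers_le]
        exact hg'G
      · have hfact : Fact p.Prime := ⟨hp⟩
        apply IsPGroup.of_card (n := 1)
        rw [Nat.card_zpowers, hg'ord, pow_one]
      · intro r hr a ha
        obtain ⟨i, rfl⟩ := Subgroup.mem_zpowers_iff.mp hr
        exact Equiv.Perm.zpow_apply_eq_self_of_apply_eq_self (hg'fix a ha) i)
    have h2 : Nat.card ↥(Subgroup.zpowers (g ^ (orderOf g / p))) = p := by
      rw [Nat.card_zpowers, hg'ord]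
    have h3 : Nat.card ↥(Subgroup.zpowers (g ^ (orderOf g / p))) ≤ Nat.card ↥Q := h
    omega
  refine ⟨p, Q, Finset.univ.filter (fun a => ∀ q ∈ Q, q a = a), ?_⟩
  refine ⟨hp, hQG, hQp, ?_, ?_, ?_, ?_⟩
  · intro hQ
    rw [hQ] at hpQ
    have h1 : Nat.card ↥(⊥ : Subgroup (Equiv.Perm α)) = 1 := Subgroup.card_bot
    have := hp.two_le
    omega
  · intro a
    simp
  · rw [← hs₀]
    apply Finset.card_le_card
    intro a ha
    simp only [Finset.mem_filter, Finset.mem_univ, true_and]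
    intro q hq
    exact hs₀fix q hq a ha
  · intro R hRG hRp hRs
    exact hQmax R ⟨hRG, hRp, hRs⟩

end Cfsg.Agent.Lib.Helper1.KAlt
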